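import Cfsg.Agent.Lib.Helper11.Y532c3.D0
import Cfsg.Agent.Lib.Helper11.Words

set_option autoImplicit false
set_option maxRecDepth 100000

namespace Cfsg.Agent.Lib.Helper11.Y532c3

noncomputable def fc (i : ℕ) : ℕ := fc0_0 i
noncomputable def sc (i : ℕ) : ℕ := sc0_0 i
noncomputable def nc (i : ℕ) : ℕ := nc0_0 i
noncomputable def cc (i : ℕ) : ℕ := cc0_0 i

noncomputable def INV : ℕ := 247132686368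
def isH (l : ℕ) : Bool := decide (l ∈ [1, 2, 3, 5, 6, 7])
def gens : List ℕ := [1, 2, 3, 4, 5, 6, 7]
def rt : RT := (.node 16 (.node 7 (.node 4 (.node 2 (.node 1 (.leaf 21 0 [2, 7, 2, 7]) (.leaf 28 0 [3, 7, 3, 7])) (.node 3 (.leaf 35 0 [4, 7, 4, 7]) (.leaf 49 0 [6, 7, 6, 7]))) (.node 6 (.node 5 (.leaf 42 0 [5, 7, 5, 7]) (.leaf 10 1 [3, 1, 3, 1])) (.leaf 11 1 [4, 1, 4, 1]))) (.node 11 (.node 9 (.node 8 (.leaf 13 1 [6, 1, 6, 1]) (.leaf 19 0 [2, 5, 2, 5])) (.node 10 (.leaf 26 0 [3, 5, 3, 5]) (.leaf 33 0 [4, 5, 4, 5]))) (.node 14 (.node 13 (.node 12 (.leaf 42 1 [7, 5, 7, 5]) (.leaf 18 1 [4, 2, 4, 2])) (.leaf 20 1 [6, 2, 6, 2])) (.node 15 (.leaf 12 0 [1, 5, 1, 5, 1, 5]) (.leaf 14 0 [1, 7, 1, 7, 1, 7]))))) (.node 28 (.node 22 (.node 19 (.node 18 (.node 17 (.leaf 12 1 [5, 1, 5, 1, 5,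 1]) (.leaf 14 1 [7, 1, 7, 1, 7, 1])) (.leaf 9 0 [1, 2, 1, 2, 1, 2])) (.node 21 (.node 20 (.leaf 10 0 [1, 3, 1, 3]) (.leaf 19 1 [5, 2, 5, 2])) (.leaf 21 1 [7, 2, 7, 2]))) (.node 25 (.node 24 (.node 23 (.leaf 9 1 [2, 1, 2, 1, 2, 1]) (.leaf 13 0 [1, 6, 1, 6])) (.leaf 20 0 [2, 6, 2, 6])) (.node 27 (.node 26 (.leaf 27 0 [3, 6, 3, 6]) (.leaf 34 0 [4, 6, 4, 6])) (.leaf 41 0 [5, 6, 5, 6, 5, 6])))) (.node 35 (.node 32 (.node 30 (.node 29 (.leaf 41 1 [6, 5, 6, 5, 6, 5]) (.leaf 11 0 [1, 4, 1, 4])) (.node 31 (.leaf 18 0 [2, 4, 2, 4]) (.leaf 35 1 [7, 4, 7, 4]))) (.node 34 (.node 33 (.leaf 26 1 [5, 3, 5, 3]) (.leaf 27 1 [6, 3, 6, 3])) (.leaf 28 1 [7, 3, 7, 3]))) (.node 39 (.node 37 (.node 36 (.leaf 17 0 [2, 3, 2, 3, 2, 3]) (.leaf 49 1 [7, 6, 7, 6])) (.node 38 (.leaf 33 1 [5, 4, 5, 4]) (.leaf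 34 1 [6, 4, 6, 4]))) (.node 41 (.node 40 (.leaf 17 1 [3, 2, 3, 2, 3, 2]) (.leaf 25 0 [3, 4, 3, 4, 3, 4])) (.node 42 (.leaf 25 1 [4, 3, 4, 3, 4, 3]) (.leaf 0 0 [])))))))


end Cfsg.Agent.Lib.Helper11.Y532c3
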